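import Cfsg.Agent.H743.GG.Count

/-!
# Multiplicity one from a pinning and coordinates (S4884, helper356)

* `Ech p K` : the absolute trace character; `Ech_equiv` : invariance under isomorphisms of fields;
* `semilin` : an additive map which is equivariant for a surjection onto the units is a multiple of an isomorphism of fields;
* `coord_pin` : `g φ(·) g⁻¹ : X α_i → X α_j` maps elements of coordinate `1` to elements of coordinate `1` if it preserves the
  characters `Ech ∘ coordinate`;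
* `multOne_coord` : multiplicity one for every frame with a pinning of coordinates `1`; `multOne_coord'` : injective coordinates.
-/

set_option autoImplicit false
set_option linter.unusedSectionVars false

open Cfsg

namespace Cfsg.Agent.H356.AQ

/-! ### the characters -/

section chars

variable (p : ℕ) [Fact p.Prime]

/-- the absolute trace character -/
noncomputable def Ech (K : Type*) [Field K] [CharP K p] : AddChar K ℂ :=
  letI := ZMod.algebra K p
  (ZMod.stdAddChar (N := p)).compAddMonoidHom (Algebra.trace (ZMod p) K).toAddMonoidHom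

theorem Ech_ne (K : Type*) [Field K] [CharP K p] [Finite K] : Ech p K ≠ 1 := by
  let _ := ZMod.algebra K p
  intro h
  have h1 : Algebra.trace (ZMod p) K = 0 := by
    ext s
    have h2 : (ZMod.stdAddChar (N := p)) (Algebra.trace (ZMod p) K s) = 1 := DFunLike.congr_fun h s
    rw [← (ZMod.stdAddChar (N := p)).map_zero_eq_one] at h2
    exact ZMod.injective_stdAddChar h2
  exact Algebra.trace_ne_zero (ZMod p) K h1

theorem Ech_equiv {K L : Type*} [Field K] [CharP K p] [Field L] [CharP L p] (θ : K ≃+* L) (s : K) :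
    Ech p L (θ s) = Ech p K s := by
  let _ := ZMod.algebra K p
  let _ := ZMod.algebra L p
  let e : K ≃ₐ[ZMod p] L := AlgEquiv.ofRingEquiv (f := θ) (fun r =>
    RingHom.congr_fun (RingHom.ext_zmod (θ.toRingHom.comp (algebraMap (ZMod p) K)) (algebraMap (ZMod p) L)) r)
  have h1 := Algebra.trace_eq_of_algEquiv e s
  change (ZMod.stdAddChar (N := p)) (Algebra.trace (ZMod p) L (θ s)) = (ZMod.stdAddChar (N := p)) (Algebra.trace (ZMod p) K s)
  exact congrArg _ h1

end chars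

/-- semilinearity -/
theorem semilin {K L : Type*} [Field K] [Field L] {A : K → L} (hadd : ∀ s t, A (s + t) = A s + A t)
    (hmul : ∀ c : Kˣ, ∃ d : L, ∀ s, A (c * s) = d * A s) (hsurj : Function.Surjective A) :
    A 1 ≠ 0 ∧ ∃ θ : K ≃+* L, ∀ s, A s = A 1 * θ s := by
  have h0 : A 0 = 0 := by
    have := hadd 0 0
    rw [add_zero] at this
    exact (left_eq_add.1 this)
  have h1 : A 1 ≠ 0 := by
    intro h
    obtain ⟨s, hs⟩ := hsurj 1
    by_cases hs0 : s = 0
    · rw [hs0, h0] at hs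
      exact zero_ne_one hs
    · obtain ⟨d, hd⟩ := hmul (Units.mk0 s hs0)
      have h2 := hd 1
      rw [Units.val_mk0, mul_one, hs, h, mul_zero] at h2
      exact one_ne_zero h2
  refine ⟨h1, ?_⟩
  let θ : K →+* L :=
    { toFun := fun s => A s / A 1
      map_one' := div_self h1
      map_zero' := by rw [h0, zero_div]
      map_add' := fun s t => by rw [hadd, add_div]
      map_mul' := fun s t => by
        by_cases hs : s = 0
        · rw [hs, zero_mul, h0, zero_div, zero_mul]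
        · obtain ⟨d, hd⟩ := hmul (Units.mk0 s hs)
          have h2 := hd 1
          have h3 := hd t
          rw [Units.val_mk0, mul_one] at h2
          rw [Units.val_mk0] at h3
          rw [h3, h2, mul_div_assoc, mul_div_assoc, div_self h1, mul_one] }
  have hθ : ∀ s, θ s = A s / A 1 := fun _ => rfl
  refine ⟨RingEquiv.ofBijective θ ⟨θ.injective, fun y => ?_⟩, fun s => ?_⟩
  · obtain ⟨s, hs⟩ := hsurj (A 1 * y)
    exact ⟨s, by rw [hθ, hs, mul_div_cancel_left₀ _ h1]⟩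
  · change A s = A 1 * (A s / A 1)
    rw [mul_div_cancel₀ _ h1]

open Cfsg.Agent.Characters
open Cfsg.Agent.H53.HC Cfsg.Agent.H641.Gow Cfsg.Agent.H148.GG Cfsg.Agent.H743.GG

open CoxeterSystem Cfsg.Agent.ChevalleyStructure.CoxeterGeom Cfsg.Agent.Tits.Roots Cfsg.Agent.Tits.Core
  Cfsg.Agent.Tits.Exchange Cfsg.Agent.Nodes.Reps Cfsg.Agent.Nodes.BNOf Cfsg.Agent.Nodes.StabComb
  Cfsg.Agent.Nodes.Bruhat Cfsg.Agent.Nodes.OppDec Cfsg.Agent.Nodes.LeviDec
open Cfsg.Agent.H40.OC (UU cor cor_X cor_ne cor_V X_le_UU T_conj_X)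

variable {I W Y : Type*} [Fintype I] [DecidableEq I] [Group W] [Group Y] {M : CoxeterMatrix I}
  {cs : CoxeterSystem M W} {A : I → I → ℤ} {h : IsCartan M A} {p : ℕ} {T : Subgroup Y} {n : I → Y}
  {X : (I → ℤ) → Subgroup Y} {F : I → Type*} [∀ i, Field (F i)]

/-- elements inverted by an element of the torus -/
def Iv (D : Adj T X F) (i : I) (u : Y) : Prop := ∃ t : T, (D.a i t : F i) = -1 ∧ (t : Y) * u * (t : Y)⁻¹ = u⁻¹

section pin

variable (R : RGD cs h p T n X) (D : Adj T X F) {φ : Y → Y} (hφ : H92.GG.Anti cs h T X φ) {w : W} {g : Y}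
  (hg : Rp cs R.nsys w g) {i j : I} (hij : -rep cs h w (sr i) = sr j)

include R hφ hg hij

theorem f_mem {u : Y} (hu : u ∈ X (sr i)) : g * φ u * g⁻¹ ∈ X (sr j) := by
  have h1 := H92.GG.ff_root R hφ hg (isRoot_sr cs h i) hu
  rw [hij] at h1
  exact h1

/-- the homomorphism of the coordinates -/
noncomputable def fhom : ↥(X (sr i)) →* Multiplicative (F j) where
  toFun u := D.x j ⟨g * φ u * g⁻¹, f_mem R hφ hg hij u.2⟩
  map_one' := by
    have e : (⟨g * φ ((1 : ↥(X (sr i))) : Y) * g⁻¹, f_mem R hφ hg hij (1 : ↥(X (sr i))).2⟩ : ↥(X (sr j))) = 1 := by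
      apply Subtype.ext
      change g * φ 1 * g⁻¹ = 1
      rw [hφ.one, mul_one, mul_inv_cancel]
    rw [e, map_one]
  map_mul' u v := by
    have e : (⟨g * φ ((u * v : ↥(X (sr i))) : Y) * g⁻¹, f_mem R hφ hg hij (u * v : ↥(X (sr i))).2⟩ : ↥(X (sr j))) =
        ⟨g * φ v * g⁻¹, f_mem R hφ hg hij v.2⟩ * ⟨g * φ u * g⁻¹, f_mem R hφ hg hij u.2⟩ := by
      apply Subtype.ext
      change g * φ ((u : Y) * v) * g⁻¹ = (g * φ v * g⁻¹) * (g * φ u * g⁻¹)
      rw [hφ.mul]
      group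
    rw [e, map_mul, mul_comm]

theorem fhom_apply (u : ↥(X (sr i))) (hm : g * φ (u : Y) * g⁻¹ ∈ X (sr j)) :
    fhom R D hφ hg hij u = D.x j ⟨g * φ u * g⁻¹, hm⟩ := rfl

theorem fhom_surj : Function.Surjective (fhom R D hφ hg hij) := by
  intro y
  obtain ⟨v, hv⟩ := D.surjX j y
  have h1 : g⁻¹ * v * g ∈ X (-sr i) := by
    have h2 := R.conj_mem' hg (isRoot_sr cs h j) v.2
    have h3 : rep cs h w⁻¹ (sr j) = -sr i := by rw [← hij, map_neg, rep_inv_apply]
    rwa [h3] at h2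
  have h3 : φ (g⁻¹ * v * g) ∈ X (sr i) := by
    have := hφ.root _ (isRoot_sr cs h i).neg _ h1
    rwa [neg_neg] at this
  refine ⟨⟨_, h3⟩, ?_⟩
  have e : g * φ (φ (g⁻¹ * (v : Y) * g)) * g⁻¹ = v := by
    rw [hφ.invo]
    group
  rw [← hv, fhom_apply R D hφ hg hij ⟨_, h3⟩ (f_mem R hφ hg hij h3)]
  congr 1
  exact Subtype.ext e

/-- conjugation by the torus -/
theorem f_conj {t u : Y} (ht : t ∈ T) : g * φ (t * u * t⁻¹) * g⁻¹ =
    (g * t⁻¹ * g⁻¹) * (g * φ u * g⁻¹) * (g * t⁻¹ * g⁻¹)⁻¹ := by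
  rw [hφ.mul, hφ.mul, hφ.inv, hφ.tor t ht]
  group

theorem conj_memT {t : Y} (ht : t ∈ T) : g * t⁻¹ * g⁻¹ ∈ T :=
  (Subgroup.mem_normalizer_iff.1 hg.mem_normalizer _).1 (inv_mem ht)

variable [Fact p.Prime] [∀ i, CharP (F i) p] [∀ i, Finite (F i)]

/-- the kernel of the coordinate -/
theorem fhom_ker {u : ↥(X (sr i))} (hu : D.x i u = 1) : fhom R D hφ hg hij u = 1 := by
  have h1 : ∀ c : F j, Ech p (F j) (c * Multiplicative.toAdd (fhom R D hφ hg hij u)) = 1 := by
    intro c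
    let χ : ↥(X (sr i)) →* ℂˣ := (MonoidHom.toHomUnits ((Ech p (F j)).mulShift c).toMonoidHom).comp
      (fhom R D hφ hg hij)
    have h2 := D.lin i χ u hu
    exact congrArg Units.val h2
  by_contra hne
  have h2 : Multiplicative.toAdd (fhom R D hφ hg hij u) ≠ 0 := fun h0 => hne (Multiplicative.toAdd.injective h0)
  apply Ech_ne p (F j)
  ext s
  have h3 := h1 (s * (Multiplicative.toAdd (fhom R D hφ hg hij u))⁻¹)
  rw [inv_mul_cancel_right₀ h2] at h3
  rw [h3]
  rfl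

/-- **the coordinates** -/
theorem coord_pin (hψ : ∀ u : ↥(X (sr i)), Ech p (F j) (Multiplicative.toAdd (fhom R D hφ hg hij u)) =
      Ech p (F i) (Multiplicative.toAdd (D.x i u))) {e : ↥(X (sr i))} (he : D.x i e = Multiplicative.ofAdd 1) :
    fhom R D hφ hg hij e = Multiplicative.ofAdd 1 := by
  classical
  let us : F i → ↥(X (sr i)) := fun s => Function.surjInv (D.surjX i) (Multiplicative.ofAdd s)
  have hus : ∀ s, D.x i (us s) = Multiplicative.ofAdd s := fun s => Function.surjInv_eq (D.surjX i) _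
  obtain ⟨B, hB⟩ : ∃ B : F i → F j, ∀ s, B s = Multiplicative.toAdd (fhom R D hφ hg hij (us s)) := ⟨_, fun _ => rfl⟩
  have key : ∀ u, Multiplicative.toAdd (fhom R D hφ hg hij u) = B (Multiplicative.toAdd (D.x i u)) := by
    intro u
    rw [hB]
    congr 1
    have h1 : D.x i (u * (us (Multiplicative.toAdd (D.x i u)))⁻¹) = 1 := by
      rw [map_mul, map_inv, hus, ofAdd_toAdd, mul_inv_cancel]
    have h2 := fhom_ker R D hφ hg hij h1
    rw [map_mul, map_inv] at h2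
    exact mul_inv_eq_one.1 h2
  have hadd : ∀ s t, B (s + t) = B s + B t := by
    intro s t
    have h1 := key (us s * us t)
    rw [map_mul, (D.x i).map_mul, hus, hus, toAdd_mul, ← hB, ← hB] at h1
    exact h1.symm
  have hmul : ∀ c : (F i)ˣ, ∃ d : F j, ∀ s, B (c * s) = d * B s := by
    intro c
    obtain ⟨t, ht⟩ := D.surjT (Function.update (fun _ => 1) i c)
    have ht' : D.a i t = c := by rw [ht, Function.update_self]
    have ht2 : g * (t : Y)⁻¹ * g⁻¹ ∈ T := conj_memT R hφ hg hij t.2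
    refine ⟨(D.a j ⟨_, ht2⟩ : F j), fun s => ?_⟩
    have hu : (t : Y) * (us s : Y) * (t : Y)⁻¹ ∈ X (sr i) := T_conj_X R i t.2 (us s).2
    have h1 := D.act i t (us s) hu
    rw [ht', hus, toAdd_ofAdd] at h1
    have h2 := key ⟨_, hu⟩
    rw [h1] at h2
    rw [← h2]
    have hf := f_conj R hφ hg hij (t := (t : Y)) (u := (us s : Y)) t.2
    have hm := f_mem R hφ hg hij (us s).2
    have hm' : (g * (t : Y)⁻¹ * g⁻¹) * (g * φ (us s) * g⁻¹) * (g * (t : Y)⁻¹ * g⁻¹)⁻¹ ∈ X (sr j) :=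
      T_conj_X R j ht2 hm
    have h3 := D.act j ⟨_, ht2⟩ ⟨_, hm⟩ hm'
    rw [hB, fhom_apply R D hφ hg hij (us s) hm, ← h3, fhom_apply R D hφ hg hij ⟨_, hu⟩ (f_mem R hφ hg hij hu)]
    congr 2
    exact Subtype.ext hf
  have hsurj : Function.Surjective B := by
    intro y
    obtain ⟨u, hu⟩ := fhom_surj R D hφ hg hij (Multiplicative.ofAdd y)
    exact ⟨Multiplicative.toAdd (D.x i u), by rw [← key, hu, toAdd_ofAdd]⟩
  obtain ⟨h1, θ, hθ⟩ := semilin hadd hmul hsurj
  have h2 : ∀ s, Ech p (F i) (θ.symm (B 1) * s) = Ech p (F i) s := by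
    intro s
    have h3 := hψ (us s)
    rw [key, hus, toAdd_ofAdd, hθ] at h3
    rw [← h3, ← Ech_equiv p θ, map_mul, RingEquiv.apply_symm_apply]
  have h3 := scalar_eq_one (Ech_ne p (F i)) h2
  have h4 : B 1 = 1 := by
    rw [← RingEquiv.apply_symm_apply θ (B 1), h3, map_one]
  apply Multiplicative.toAdd.injective
  rw [key, he, toAdd_ofAdd, h4, toAdd_ofAdd]

/-- the image of an element of coordinate `1` inverted by the torus -/
theorem coord_iv (hψ : ∀ u : ↥(X (sr i)), Ech p (F j) (Multiplicative.toAdd (fhom R D hφ hg hij u)) =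
      Ech p (F i) (Multiplicative.toAdd (D.x i u))) {e : Y} (hm : e ∈ X (sr i))
      (he : D.x i ⟨e, hm⟩ = Multiplicative.ofAdd 1) (hI : Iv D i e) : Iv D j (g * φ e * g⁻¹) := by
  obtain ⟨t, ht, ht'⟩ := hI
  have ht2 : g * (t : Y)⁻¹ * g⁻¹ ∈ T := conj_memT R hφ hg hij t.2
  have h1 : (g * (t : Y)⁻¹ * g⁻¹) * (g * φ e * g⁻¹) * (g * (t : Y)⁻¹ * g⁻¹)⁻¹ = (g * φ e * g⁻¹)⁻¹ := by
    rw [← f_conj R hφ hg hij t.2, ht', hφ.inv]
    group
  refine ⟨⟨_, ht2⟩, ?_, h1⟩
  have hf := f_mem R hφ hg hij hm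
  have hf' : (g * (t : Y)⁻¹ * g⁻¹) * (g * φ e * g⁻¹) * (g * (t : Y)⁻¹ * g⁻¹)⁻¹ ∈ X (sr j) := T_conj_X R j ht2 hf
  have h2 := D.act j ⟨_, ht2⟩ ⟨_, hf⟩ hf'
  have h3 := coord_pin R D hφ hg hij hψ he
  rw [fhom_apply R D hφ hg hij ⟨e, hm⟩ hf] at h3
  have h4 : (⟨(g * (t : Y)⁻¹ * g⁻¹) * (g * φ e * g⁻¹) * (g * (t : Y)⁻¹ * g⁻¹)⁻¹, hf'⟩ : ↥(X (sr j))) =
      (⟨g * φ e * g⁻¹, hf⟩)⁻¹ := Subtype.ext h1
  have h5 : Multiplicative.toAdd (D.x j ⟨(g * (t : Y)⁻¹ * g⁻¹) * (g * φ e * g⁻¹) * (g * (t : Y)⁻¹ * g⁻¹)⁻¹, hf'⟩) =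
      -(1 : F j) := by
    rw [h4, map_inv, toAdd_inv]
    exact congrArg (fun z => -Multiplicative.toAdd z) h3
  have h6 : Multiplicative.toAdd (D.x j ⟨g * φ e * g⁻¹, hf⟩) = (1 : F j) := congrArg Multiplicative.toAdd h3
  have h7 : Multiplicative.toAdd (D.x j ⟨(g * (t : Y)⁻¹ * g⁻¹) * (g * φ e * g⁻¹) * (g * (t : Y)⁻¹ * g⁻¹)⁻¹, hf'⟩) =
      (D.a j ⟨_, ht2⟩ : F j) * Multiplicative.toAdd (D.x j ⟨g * φ e * g⁻¹, hf⟩) := h2
  rw [h5, h6, mul_one] at h7
  exact h7.symm

end pin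

section main

variable [Finite W] (R : RGD cs h p T n X) (D : Adj T X F) [Fact p.Prime] [∀ i, CharP (F i) p] [∀ i, Finite (F i)]

/-- the linear character of a simple root group -/
noncomputable def psiX (p : ℕ) [Fact p.Prime] [∀ i, CharP (F i) p] (D : Adj T X F) (i : I) : ↥(X (sr i)) →* ℂˣ :=
  (MonoidHom.toHomUnits (Ech p (F i)).toMonoidHom).comp (D.x i)

theorem psiX_val (D : Adj T X F) (i : I) (u : ↥(X (sr i))) :
    (psiX p D i u : ℂ) = Ech p (F i) (Multiplicative.toAdd (D.x i u)) := rfl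

/-- the linear character of `U` -/
noncomputable def psiU : ↥(UJ cs h X Set.univ) →* ℂˣ :=
  (∏ i, (psiX p D i).comp (cor R i)).comp (Subgroup.inclusion (Cfsg.Agent.Nodes.Bruhat.UJ_le_U Set.univ))

theorem psiU_sr (i : I) {u : Y} (hu : u ∈ X (sr i)) (hu' : u ∈ UJ cs h X Set.univ) :
    psiU R D ⟨u, hu'⟩ = psiX p D i ⟨u, hu⟩ := by
  unfold psiU
  rw [MonoidHom.comp_apply, MonoidHom.finsetProd_apply, Finset.prod_eq_single i]
  · rw [MonoidHom.comp_apply]
    congr 1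
    exact cor_X R i hu _
  · intro j _ hj
    rw [MonoidHom.comp_apply]
    have e : cor R j (Subgroup.inclusion (Cfsg.Agent.Nodes.Bruhat.UJ_le_U Set.univ) ⟨u, hu'⟩) = 1 :=
      cor_ne R hj hu _
    rw [e, map_one]
  · intro hc
    exact absurd (Finset.mem_univ i) hc

theorem psiU_nd : Nd cs h X Set.univ (psiU R D) := by
  refine ⟨?_, ?_⟩
  · intro x hx hxs u hu' hu
    unfold psiU
    rw [MonoidHom.comp_apply, MonoidHom.finsetProd_apply]
    refine Finset.prod_eq_one fun i _ => ?_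
    rw [MonoidHom.comp_apply]
    have e : cor R i (Subgroup.inclusion (Cfsg.Agent.Nodes.Bruhat.UJ_le_U Set.univ) ⟨u, hu'⟩) = 1 :=
      cor_V R i (RGD.le_Sup (S := RGD.PosNe cs h i) ⟨hx.1, hx.2.1, hxs i⟩ hu) _
    rw [e, map_one]
  · intro i _
    obtain ⟨s, hs⟩ : ∃ s, Ech p (F i) s ≠ 1 := by
      by_contra hcon
      push Not at hcon
      exact Ech_ne p (F i) (by ext s; rw [hcon s]; rfl)
    obtain ⟨u, hu⟩ := D.surjX i (Multiplicative.ofAdd s)
    have h2 : (u : Y) ∈ UJ cs h X Set.univ := RGD.le_Sup (S := PosJ cs h Set.univ) (sr_mem_PosJ (Set.mem_univ i)) u.2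
    refine ⟨u, h2, u.2, fun h3 => hs ?_⟩
    rw [psiU_sr R D i u.2 h2] at h3
    have h4 := congrArg Units.val h3
    rw [psiX_val, Subtype.coe_eta, hu, toAdd_ofAdd] at h4
    exact h4

include R

/-- **multiplicity one from a pinning with coordinates `1`** -/
theorem multOne_coord [Finite Y] {φ : Y → Y} (hφ : H92.GG.Anti cs h T X φ) {e : I → Y}
    (P : H92.GG.Pin cs h n X Set.univ e)
    (he : ∀ (i : I) (hm : e i ∈ X (sr i)), D.x i ⟨e i, hm⟩ = Multiplicative.ofAdd 1)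
    (hI : ∀ i, Iv D i (e i))
    (huq : ∀ (i : I) (u v : Y) (hu : u ∈ X (sr i)) (hv : v ∈ X (sr i)), D.x i ⟨u, hu⟩ = D.x i ⟨v, hv⟩ →
      Iv D i u → Iv D i v → u = v) : MultOne cs h T X := by
  refine multOne_pin R D hφ P (psiU_nd R D) ?_
  intro i _ j _ w g _ hg hij hpres
  have hm := P.mem i (Set.mem_univ i)
  have hm' := P.mem j (Set.mem_univ j)
  have hψ : ∀ u : ↥(X (sr i)), Ech p (F j) (Multiplicative.toAdd (fhom R D hφ hg hij u)) =
      Ech p (F i) (Multiplicative.toAdd (D.x i u)) := by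
    intro u
    have h1 := hpres u u.2
    have hu' : (u : Y) ∈ UJ cs h X Set.univ := RGD.le_Sup (S := PosJ cs h Set.univ) (sr_mem_PosJ (Set.mem_univ i)) u.2
    have hf := f_mem R hφ hg hij u.2
    have hf' : g * φ u * g⁻¹ ∈ UJ cs h X Set.univ :=
      RGD.le_Sup (S := PosJ cs h Set.univ) (sr_mem_PosJ (Set.mem_univ j)) hf
    rw [H92.GG.ext_of_mem _ hu', H92.GG.ext_of_mem _ hf', psiU_sr R D i u.2 hu', psiU_sr R D j hf hf'] at h1
    have h2 := congrArg Units.val h1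
    rw [psiX_val, psiX_val] at h2
    exact h2
  refine huq j _ _ (f_mem R hφ hg hij hm) hm' ?_ (coord_iv R D hφ hg hij hψ hm (he i hm) (hI i)) (hI j)
  rw [he j hm']
  exact coord_pin R D hφ hg hij hψ (he i hm)

/-- **injective coordinates** -/
theorem multOne_coord' [Finite Y] {φ : Y → Y} (hφ : H92.GG.Anti cs h T X φ) {e : I → Y}
    (P : H92.GG.Pin cs h n X Set.univ e)
    (he : ∀ (i : I) (hm : e i ∈ X (sr i)), D.x i ⟨e i, hm⟩ = Multiplicative.ofAdd 1)
    (hinj : ∀ i, Function.Injective (D.x i)) : MultOne cs h T X := by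
  classical
  refine multOne_coord R D hφ P he (fun i => ?_) fun i u v hu hv h1 _ _ => ?_
  · obtain ⟨t, ht⟩ := D.surjT (Function.update (fun _ => 1) i (-1))
    have ht' : D.a i t = -1 := by rw [ht, Function.update_self]
    have hm := P.mem i (Set.mem_univ i)
    have hc : (t : Y) * e i * (t : Y)⁻¹ ∈ X (sr i) := T_conj_X R i t.2 hm
    refine ⟨t, by rw [ht']; rfl, ?_⟩
    have h1 := D.act i t ⟨e i, hm⟩ hc
    rw [ht', he i hm, toAdd_ofAdd, mul_one] at h1
    have h2 : (⟨(t : Y) * e i * (t : Y)⁻¹, hc⟩ : ↥(X (sr i))) = (⟨e i, hm⟩)⁻¹ := by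
      apply hinj i
      apply Multiplicative.toAdd.injective
      rw [map_inv, he i hm, toAdd_inv, toAdd_ofAdd]
      exact h1
    exact congrArg Subtype.val h2
  · exact congrArg Subtype.val (hinj i h1)

end main

end Cfsg.Agent.H356.AQ
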